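-- Team project CS3 (S4284), part GOOD (helper41), package [EXY] (helper53):
-- a non-abelian `s`-subgroup `S` has an element `y` of the second centre, outside the centre,
-- with `y ^ s` central in `S`.
import Mathlib
import Cfsg.Agent.Lib.Helper41.CS3.GoodDefs

set_option autoImplicit false

namespace Cfsg.Agent.Lib.Helper53.CS3

open Cfsg.Agent.Lib.Helper41.CS3

universe u

/-- [EXY] -/
theorem pkgExy : PkgExy.{u} := by
  intro G _ _ s hs S hS hnab
  haveI : Fact s.Prime := ⟨hs⟩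
  have hZtop : ∃ x : S, x ∉ Subgroup.center S := by
    by_contra hcon
    push Not at hcon
    apply hnab
    intro x hx y hy
    have h2 := Subgroup.mem_center_iff.1 (hcon ⟨x, hx⟩) ⟨y, hy⟩
    exact (congrArg Subtype.val h2).symm
  obtain ⟨x0, hx0⟩ := hZtop
  haveI : Nontrivial (S ⧸ Subgroup.center S) :=
    nontrivial_of_ne (QuotientGroup.mk x0) 1 (by rwa [Ne, QuotientGroup.eq_one_iff])
  have hQ : IsPGroup s (S ⧸ Subgroup.center S) := hS.to_quotient (Subgroup.center S)
  haveI : Nontrivial (Subgroup.center (S ⧸ Subgroup.center S)) := hQ.center_nontrivial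
  obtain ⟨⟨w, hw⟩, hw1⟩ := exists_ne (1 : Subgroup.center (S ⧸ Subgroup.center S))
  have hw1' : w ≠ 1 := fun h => hw1 (Subtype.ext h)
  obtain ⟨k, hk⟩ := (IsPGroup.iff_orderOf.1 hQ) w
  have hk0 : k ≠ 0 := by
    rintro rfl
    rw [pow_zero, orderOf_eq_one_iff] at hk
    exact hw1' hk
  have hw'c : w ^ (s ^ (k - 1)) ∈ Subgroup.center (S ⧸ Subgroup.center S) :=
    Subgroup.pow_mem _ hw _
  have hw's : (w ^ (s ^ (k - 1))) ^ s = 1 := by
    rw [← pow_mul, ← pow_succ, show k - 1 + 1 = k by omega, ← hk, pow_orderOf_eq_one]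
  have hw'1 : w ^ (s ^ (k - 1)) ≠ 1 := by
    intro h
    have h1 := orderOf_dvd_of_pow_eq_one h
    rw [hk, Nat.pow_dvd_pow_iff_le_right hs.one_lt] at h1
    omega
  obtain ⟨y', hy'⟩ := QuotientGroup.mk_surjective (w ^ (s ^ (k - 1)))
  have hyZ : y' ∉ Subgroup.center S := by
    intro h
    apply hw'1
    rw [← hy']
    exact (QuotientGroup.eq_one_iff y').2 h
  have hpow : y' ^ s ∈ Subgroup.center S := by
    rw [← QuotientGroup.eq_one_iff, QuotientGroup.mk_pow, hy']
    exact hw's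
  have hcomm : ∀ σ : S, σ * y' * σ⁻¹ * y'⁻¹ ∈ Subgroup.center S := by
    intro σ
    rw [← QuotientGroup.eq_one_iff]
    simp only [QuotientGroup.mk_mul, QuotientGroup.mk_inv]
    rw [hy']
    have h := Subgroup.mem_center_iff.1 hw'c (QuotientGroup.mk σ)
    rw [h]
    group
  refine ⟨(y' : G), ⟨y'.2, ?_, ?_, ?_, ?_⟩⟩
  · obtain ⟨j, hj⟩ := IsPGroup.iff_orderOf.1 hS y'
    exact ⟨j, by rw [← hj, Subgroup.orderOf_coe]⟩
  · by_contra hcon
    push Not at hcon
    apply hyZ
    rw [Subgroup.mem_center_iff]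
    intro g
    apply Subtype.ext
    exact (hcon g g.2).symm
  · intro σ hσ τ hτ
    have h := Subgroup.mem_center_iff.1 (hcomm ⟨σ, hσ⟩) ⟨τ, hτ⟩
    exact (congrArg Subtype.val h).symm
  · intro τ hτ
    have h := Subgroup.mem_center_iff.1 hpow ⟨τ, hτ⟩
    have h2 := congrArg Subtype.val h
    simp only [Subgroup.coe_mul, Subgroup.coe_pow] at h2
    exact h2.symm

end Cfsg.Agent.Lib.Helper53.CS3
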